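import Cfsg.Agent.Comp.F3.Lab

set_option autoImplicit false
set_option maxRecDepth 100000

namespace Cfsg.Agent.Comp.F3
open Cfsg.Agent.Comp Cfsg.Agent.Comp.Lab Cfsg.Agent.Comp.Fi24

def g0 : List (List Nat) := [[0, 0], [1, 1], [2, 2], [3, 3], [4, 4], [5, 5], [6, 6], [7, 7], [8, 8], [9, 9], [10, 10], [11, 11]]

theorem s0 : Sat t g0 :=
  sat_of_rels ok hV sat (by decide +kernel) (show rels T A B g0 = true by decide +kernel)

def g1 : List (List Nat) := [[0, 1, 0, 1, 0, 1], [0, 2, 0, 2], [0, 3, 0, 3], [0, 4, 0, 4], [0, 5, 0, 5]]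

theorem s1 : Sat t g1 :=
  sat_of_rels ok hV sat (by decide +kernel) (show rels T A B g1 = true by decide +kernel)

def g2 : List (List Nat) := [[0, 6, 0, 6], [0, 7, 0, 7], [0, 8, 0, 8], [0, 9, 0, 9], [0, 10, 0, 10], [0, 11, 0, 11]]

theorem s2 : Sat t g2 :=
  sat_of_rels ok hV sat (by decide +kernel) (show rels T A B g2 = true by decide +kernel)

def g3 : List (List Nat) := [[1, 2, 1, 2, 1, 2], [1, 3, 1, 3], [1, 4, 1, 4], [1, 5, 1, 5], [1, 6, 1, 6]]

theorem s3 : Sat t g3 :=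
  sat_of_rels ok hV sat (by decide +kernel) (show rels T A B g3 = true by decide +kernel)

def g4 : List (List Nat) := [[1, 7, 1, 7], [1, 8, 1, 8], [1, 9, 1, 9], [1, 10, 1, 10], [1, 11, 1, 11]]

theorem s4 : Sat t g4 :=
  sat_of_rels ok hV sat (by decide +kernel) (show rels T A B g4 = true by decide +kernel)

def g5 : List (List Nat) := [[2, 3, 2, 3, 2, 3], [2, 4, 2, 4], [2, 5, 2, 5], [2, 6, 2, 6], [2, 7, 2, 7]]

theorem s5 : Sat t g5 :=
  sat_of_rels ok hV sat (by decide +kernel) (show rels T A B g5 = true by decide +kernel)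

def g6 : List (List Nat) := [[2, 8, 2, 8], [2, 9, 2, 9], [2, 10, 2, 10], [2, 11, 2, 11], [3, 4, 3, 4, 3, 4]]

theorem s6 : Sat t g6 :=
  sat_of_rels ok hV sat (by decide +kernel) (show rels T A B g6 = true by decide +kernel)


end Cfsg.Agent.Comp.F3
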