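import Cfsg.Agent.Comp.F3.Lab

set_option autoImplicit false
set_option maxRecDepth 100000

namespace Cfsg.Agent.Comp.F3
open Cfsg.Agent.Comp Cfsg.Agent.Comp.Lab Cfsg.Agent.Comp.Fi24

def g7 : List (List Nat) := [[3, 5, 3, 5], [3, 6, 3, 6], [3, 7, 3, 7], [3, 8, 3, 8], [3, 9, 3, 9], [3, 10, 3, 10]]

theorem s7 : Sat t g7 :=
  sat_of_rels ok hV sat (by decide +kernel) (show rels T A B g7 = true by decide +kernel)

def g8 : List (List Nat) := [[3, 11, 3, 11], [4, 5, 4, 5, 4, 5], [4, 6, 4, 6], [4, 7, 4, 7], [4, 8, 4, 8]]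

theorem s8 : Sat t g8 :=
  sat_of_rels ok hV sat (by decide +kernel) (show rels T A B g8 = true by decide +kernel)

def g9 : List (List Nat) := [[4, 9, 4, 9], [4, 10, 4, 10], [4, 11, 4, 11], [5, 6, 5, 6, 5, 6], [5, 7, 5, 7]]

theorem s9 : Sat t g9 :=
  sat_of_rels ok hV sat (by decide +kernel) (show rels T A B g9 = true by decide +kernel)

def g10 : List (List Nat) := [[5, 8, 5, 8], [5, 9, 5, 9], [5, 10, 5, 10, 5, 10], [5, 11, 5, 11], [6, 7, 6, 7, 6, 7]]

theorem s10 : Sat t g10 :=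
  sat_of_rels ok hV sat (by decide +kernel) (show rels T A B g10 = true by decide +kernel)

def g11 : List (List Nat) := [[6, 8, 6, 8], [6, 9, 6, 9], [6, 10, 6, 10], [6, 11, 6, 11], [7, 8, 7, 8, 7, 8]]

theorem s11 : Sat t g11 :=
  sat_of_rels ok hV sat (by decide +kernel) (show rels T A B g11 = true by decide +kernel)

def g12 : List (List Nat) := [[7, 9, 7, 9], [7, 10, 7, 10], [7, 11, 7, 11], [8, 9, 8, 9, 8, 9], [8, 10, 8, 10]]

theorem s12 : Sat t g12 :=
  sat_of_rels ok hV sat (by decide +kernel) (show rels T A B g12 = true by decide +kernel)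

def g13 : List (List Nat) := [[8, 11, 8, 11], [9, 10, 9, 10], [9, 11, 9, 11], [10, 11, 10, 11, 10, 11]]

theorem s13 : Sat t g13 :=
  sat_of_rels ok hV sat (by decide +kernel) (show rels T A B g13 = true by decide +kernel)


end Cfsg.Agent.Comp.F3
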