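import Cfsg.Agent.Comp.Fi23.Main
import Cfsg.Agent.Comp.Lab3
import Cfsg.Agent.Comp.Mat2

set_option autoImplicit false
set_option maxRecDepth 100000

namespace Cfsg.Agent.Comp.F3
open Cfsg.Agent.Comp Cfsg.Agent.Comp.Fi23

def yw : List Nat := [2, 3, 4, 5, 6, 7, 8, 3, 2, 4, 3, 5, 4, 6, 5, 8, 3, 2, 1, 4, 3, 2, 8, 3, 4, 5, 6, 7]

def th : List Nat := [0, 1, 0, 2, 3, 4, 5, 6, 7, 8, 3, 2, 1, 4, 3, 5, 9, 8, 3, 2, 1, 0, 4, 3, 2, 1, 5, 4, 6, 5, 8, 3, 2, 4, 3, 8, 9, 8, 3, 2, 1, 0, 4, 3, 2, 1, 5, 4, 3, 6, 5, 7, 8, 3, 2, 1, 4, 3, 2, 5, 4, 6, 5, 8, 3, 4, 9, 8, 3, 2, 1, 0]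

def W3 : List (List Nat) := [[1, 2], [2, 3], [3, 4], [4, 5], [5, 6], [6, 7], [3, 8], [8, 9]]

def W2 : List (List Nat) := W3 ++ [th]

def R1 : List (List Nat) := [[0, 0], [1, 1], [2, 2], [3, 3], [4, 4], [5, 5], [6, 6], [7, 7], [8, 8], [0, 1, 0, 1, 0, 1], [1, 2, 1, 2, 1, 2], [2, 3, 2, 3, 2, 3], [3, 4, 3, 4, 3, 4], [4, 5, 4, 5, 4, 5], [5, 6, 5, 6, 5, 6], [3, 7, 3, 7, 3, 7], [7, 8, 7, 8, 7, 8], [0, 1, 2, 3, 4, 5, 7, 0, 1, 2, 3, 4, 5, 7, 0, 1, 2, 3, 4, 5, 7, 0, 1, 2, 3, 4, 5, 7, 0, 1, 2, 3, 4, 5, 7, 0, 1, 2, 3, 4, 5, 7, 0, 1, 2, 3, 4, 5, 7, 0, 1, 2, 3, 4, 5, 7, 0, 1, 2, 3, 4, 5, 7]]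

def R2 : List (List Nat) := [[0, 0, 1, 2, 0, 0, 1, 2], [1, 2, 1, 2], [0, 0, 0], [1, 1, 2, 3, 1, 1, 2, 3], [2, 3, 2, 3], [1, 1, 1], [2, 2, 6, 7, 2, 2, 6, 7], [6, 7, 6, 7], [2, 2, 2], [3, 3, 4, 5, 3, 3, 4, 5], [4, 5, 4, 5], [3, 3, 3], [4, 4, 3, 3, 2, 2, 4, 4, 3, 3, 2, 2], [3, 3, 2, 2, 3, 3, 2, 2], [4, 4, 4], [5, 5, 4, 4, 3, 3, 5, 5, 4, 4, 3, 3], [4, 4, 3, 3, 4, 4, 3, 3], [5, 5, 5], [6, 6, 2, 3, 6, 6, 2, 3], [2, 3, 2, 3], [6, 6, 6], [7, 7, 6, 6, 2, 7, 7, 6, 6, 2], [6, 6, 2, 6, 6, 2], [7, 7, 7]]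

def C1 : List (Nat × List (List Nat) × List (List Nat)) :=
  [(0, [[0, 1, 2, 3, 4, 5, 7, 0, 1, 2, 3, 4, 5, 7, 0, 1, 2, 3, 4, 5, 7, 0, 1, 2, 3, 4, 5, 7, 0, 1, 2, 3, 4, 5, 7, 0, 1, 2, 3, 4, 5, 7, 0, 1, 2, 3, 4, 5, 7, 0, 1, 2, 3, 4, 5, 7, 0, 1, 2, 3, 4, 5, 7], [1, 2, 1, 2, 1, 2], [4, 5, 4, 5, 4, 5], [3, 7, 3, 7, 3, 7]], [[0, 0], [0, 0], [0, 0], [0, 0], [1, 1], [1, 1], [1, 1], [1, 1], [1, 1], [1, 1], [2, 2], [2, 2], [2, 2], [2, 2], [2, 2], [2, 2], [3, 3], [3, 3], [3, 3], [3, 3], [3, 3], [3, 3], [4, 4], [4, 4], [4, 4], [4, 4], [4, 4], [4, 4], [5, 5], [5, 5], [5, 5], [5, 5], [5, 5], [5, 5], [7, 7], [7, 7], [7, 7], [7, 7], [7, 7], [7, 7]]),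
   (1, [[0, 1, 2, 3, 4, 5, 7, 0, 1, 2, 3, 4, 5, 7, 0, 1, 2, 3, 4, 5, 7, 0, 1, 2, 3, 4, 5, 7, 0, 1, 2, 3, 4, 5, 7, 0, 1, 2, 3, 4, 5, 7, 0, 1, 2, 3, 4, 5, 7, 0, 1, 2, 3, 4, 5, 7, 0, 1, 2, 3, 4, 5, 7], [0, 1, 0, 1, 0, 1], [1, 2, 1, 2, 1, 2], [4, 5, 4, 5, 4, 5], [3, 7, 3, 7, 3, 7]], [[0, 0], [0, 0], [0, 0], [0, 0], [0, 0], [0, 0], [1, 1], [1, 1], [1, 1], [1, 1], [1, 1], [1, 1], [1, 1], [2, 2], [2, 2], [2, 2], [2, 2], [2, 2], [2, 2], [3, 3], [3, 3], [3, 3], [3, 3], [3, 3], [3, 3], [4, 4], [4, 4], [4, 4], [4, 4], [4, 4], [4, 4], [5, 5], [5, 5], [5, 5], [5, 5], [5, 5], [5, 5], [7, 7], [7, 7], [7, 7], [7, 7], [7, 7], [7, 7]]),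
   (2, [[0, 1, 2, 3, 4, 5, 7, 0, 1, 2, 3, 4, 5, 7, 0, 1, 2, 3, 4, 5, 7, 0, 1, 2, 3, 4, 5, 7, 0, 1, 2, 3, 4, 5, 7, 0, 1, 2, 3, 4, 5, 7, 0, 1, 2, 3, 4, 5, 7, 0, 1, 2, 3, 4, 5, 7, 0, 1, 2, 3, 4, 5, 7], [0, 1, 0, 1, 0, 1], [4, 5, 4, 5, 4, 5], [3, 7, 3, 7, 3, 7]], [[0, 0], [0, 0], [0, 0], [0, 0], [0, 0], [0, 0], [1, 1], [1, 1], [1, 1], [1, 1], [1, 1], [1, 1], [2, 2], [2, 2], [2, 2], [2, 2], [3, 3], [3, 3], [3, 3], [3, 3], [3, 3], [3, 3], [4, 4], [4, 4], [4, 4], [4, 4], [4, 4], [4, 4], [5, 5], [5, 5], [5, 5], [5, 5], [5, 5], [5, 5], [7, 7], [7, 7], [7, 7], [7, 7], [7, 7], [7, 7]]),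
   (3, [[0, 1, 2, 3, 4, 5, 7, 0, 1, 2, 3, 4, 5, 7, 0, 1, 2, 3, 4, 5, 7, 0, 1, 2, 3, 4, 5, 7, 0, 1, 2, 3, 4, 5, 7, 0, 1, 2, 3, 4, 5, 7, 0, 1, 2, 3, 4, 5, 7, 0, 1, 2, 3, 4, 5, 7, 0, 1, 2, 3, 4, 5, 7], [0, 1, 0, 1, 0, 1], [2, 3, 2, 3, 2, 3], [4, 5, 4, 5, 4, 5], [3, 7, 3, 7, 3, 7]], [[0, 0], [0, 0], [0, 0], [0, 0], [0, 0], [0, 0], [1, 1], [1, 1], [1, 1], [1, 1], [1, 1], [1, 1], [2, 2], [2, 2], [2, 2], [2, 2], [2, 2], [2, 2], [3, 3], [3, 3], [3, 3], [3, 3], [3, 3], [3, 3], [3, 3], [4, 4], [4, 4], [4, 4], [4, 4], [4, 4], [4, 4], [5, 5], [5, 5], [5, 5], [5, 5], [5, 5], [5, 5], [7, 7], [7, 7], [7, 7], [7, 7], [7, 7], [7, 7]]),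
   (4, [[0, 1, 2, 3, 4, 5, 7, 0, 1, 2, 3, 4, 5, 7, 0, 1, 2, 3, 4, 5, 7, 0, 1, 2, 3, 4, 5, 7, 0, 1, 2, 3, 4, 5, 7, 0, 1, 2, 3, 4, 5, 7, 0, 1, 2, 3, 4, 5, 7, 0, 1, 2, 3, 4, 5, 7, 0, 1, 2, 3, 4, 5, 7], [0, 1, 0, 1, 0, 1], [2, 3, 2, 3, 2, 3], [3, 4, 3, 4, 3, 4], [4, 5, 4, 5, 4, 5], [3, 7, 3, 7, 3, 7]], [[0, 0], [0, 0], [0, 0], [0, 0], [0, 0], [0, 0], [1, 1], [1, 1], [1, 1], [1, 1], [1, 1], [1, 1], [2, 2], [2, 2], [2, 2], [2, 2], [2, 2], [2, 2], [3, 3], [3, 3], [3, 3], [3, 3], [3, 3], [3, 3], [3, 3], [3, 3], [3, 3], [4, 4], [4, 4], [4, 4], [4, 4], [4, 4], [4, 4], [4, 4], [5, 5], [5, 5], [5, 5], [5, 5], [5, 5], [5, 5], [7, 7], [7, 7], [7, 7], [7, 7], [7, 7], [7, 7]]),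
   (5, [[0, 1, 2, 3, 4, 5, 7, 0, 1, 2, 3, 4, 5, 7, 0, 1, 2, 3, 4, 5, 7, 0, 1, 2, 3, 4, 5, 7, 0, 1, 2, 3, 4, 5, 7, 0, 1, 2, 3, 4, 5, 7, 0, 1, 2, 3, 4, 5, 7, 0, 1, 2, 3, 4, 5, 7, 0, 1, 2, 3, 4, 5, 7], [0, 1, 0, 1, 0, 1], [2, 3, 2, 3, 2, 3], [3, 4, 3, 4, 3, 4], [3, 7, 3, 7, 3, 7]], [[0, 0], [0, 0], [0, 0], [0, 0], [0, 0], [0, 0], [1, 1], [1, 1], [1, 1], [1, 1], [1, 1], [1, 1], [2, 2], [2, 2], [2, 2], [2, 2], [2, 2], [2, 2], [3, 3], [3, 3], [3, 3], [3, 3], [3, 3], [3, 3], [3, 3], [3, 3], [3, 3], [4, 4], [4, 4], [4, 4], [4, 4], [4, 4], [4, 4], [5, 5], [5, 5], [5, 5], [5, 5], [7, 7], [7, 7], [7, 7], [7, 7], [7, 7], [7, 7]]),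
   (6, [[0, 1, 2, 3, 4, 5, 7, 0, 1, 2, 3, 4, 5, 7, 0, 1, 2, 3, 4, 5, 7, 0, 1, 2, 3, 4, 5, 7, 0, 1, 2, 3, 4, 5, 7, 0, 1, 2, 3, 4, 5, 7, 0, 1, 2, 3, 4, 5, 7, 0, 1, 2, 3, 4, 5, 7, 0, 1, 2, 3, 4, 5, 7], [0, 1, 0, 1, 0, 1], [2, 3, 2, 3, 2, 3], [3, 4, 3, 4, 3, 4], [5, 6, 5, 6, 5, 6], [3, 7, 3, 7, 3, 7]], [[0, 0], [0, 0], [0, 0], [0, 0], [0, 0], [0, 0], [1, 1], [1, 1], [1, 1], [1, 1], [1, 1], [1, 1], [2, 2], [2, 2], [2, 2], [2, 2], [2, 2], [2, 2], [3, 3], [3, 3], [3, 3], [3, 3], [3, 3], [3, 3], [3, 3], [3, 3], [3, 3], [4, 4], [4, 4], [4, 4], [4, 4], [4, 4], [4, 4], [5, 5], [5, 5], [5, 5], [5, 5], [5, 5], [5, 5], [6, 6], [7, 7], [7, 7], [7, 7], [7, 7], [7, 7], [7, 7]]),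
   (7, [[0, 1, 2, 3, 4, 5, 7, 0, 1, 2, 3, 4, 5, 7, 0, 1, 2, 3, 4, 5, 7, 0, 1, 2, 3, 4, 5, 7, 0, 1, 2, 3, 4, 5, 7, 0, 1, 2, 3, 4, 5, 7, 0, 1, 2, 3, 4, 5, 7, 0, 1, 2, 3, 4, 5, 7, 0, 1, 2, 3, 4, 5, 7], [0, 1, 0, 1, 0, 1], [2, 3, 2, 3, 2, 3], [4, 5, 4, 5, 4, 5]], [[0, 0], [0, 0], [0, 0], [0, 0], [0, 0], [0, 0], [1, 1], [1, 1], [1, 1], [1, 1], [1, 1], [1, 1], [2, 2], [2, 2], [2, 2], [2, 2], [2, 2], [2, 2], [3, 3], [3, 3], [3, 3], [3, 3], [3, 3], [3, 3], [4, 4], [4, 4], [4, 4], [4, 4], [4, 4], [4, 4], [5, 5], [5, 5], [5, 5], [5, 5], [5, 5], [5, 5], [7, 7], [7, 7], [7, 7], [7, 7]]),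
   (8, [[0, 1, 2, 3, 4, 5, 7, 0, 1, 2, 3, 4, 5, 7, 0, 1, 2, 3, 4, 5, 7, 0, 1, 2, 3, 4, 5, 7, 0, 1, 2, 3, 4, 5, 7, 0, 1, 2, 3, 4, 5, 7, 0, 1, 2, 3, 4, 5, 7, 0, 1, 2, 3, 4, 5, 7, 0, 1, 2, 3, 4, 5, 7], [0, 1, 0, 1, 0, 1], [2, 3, 2, 3, 2, 3], [4, 5, 4, 5, 4, 5], [7, 8, 7, 8, 7, 8]], [[0, 0], [0, 0], [0, 0], [0, 0], [0, 0], [0, 0], [1, 1], [1, 1], [1, 1], [1, 1], [1, 1], [1, 1], [2, 2], [2, 2], [2, 2], [2, 2], [2, 2], [2, 2], [3, 3], [3, 3], [3, 3], [3, 3], [3, 3], [3, 3], [4, 4], [4, 4], [4, 4], [4, 4], [4, 4], [4, 4], [5, 5], [5, 5], [5, 5], [5, 5], [5, 5], [5, 5], [7, 7], [7, 7], [7, 7], [7, 7], [7, 7], [7, 7], [8, 8]])]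

def C2 : List (Nat × List (List Nat) × List (List Nat)) :=
  [(0, [[0, 0, 1, 2, 0, 0, 1, 2]], [[1, 2, 1, 2], [0, 0, 0]]),
   (1, [[1, 1, 2, 3, 1, 1, 2, 3]], [[2, 3, 2, 3], [1, 1, 1]]),
   (2, [[2, 2, 6, 7, 2, 2, 6, 7]], [[6, 7, 6, 7], [2, 2, 2]]),
   (3, [[3, 3, 4, 5, 3, 3, 4, 5]], [[4, 5, 4, 5], [3, 3, 3]]),
   (4, [[4, 4, 3, 3, 2, 2, 4, 4, 3, 3, 2, 2]], [[3, 3, 2, 2, 3, 3, 2, 2], [4, 4, 4]]),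
   (5, [[5, 5, 4, 4, 3, 3, 5, 5, 4, 4, 3, 3]], [[4, 4, 3, 3, 4, 4, 3, 3], [5, 5, 5]]),
   (6, [[6, 6, 2, 3, 6, 6, 2, 3]], [[2, 3, 2, 3], [6, 6, 6]]),
   (7, [[7, 7, 6, 6, 2, 7, 7, 6, 6, 2]], [[6, 6, 2, 6, 6, 2], [7, 7, 7]])]

def RD : List (List Nat) := [[1, 2, 1, 4, 1, 2, 1, 4], [2, 4, 2, 4], [1, 2, 1, 2, 1, 2], [2, 3, 2, 5, 2, 3, 2, 5], [3, 5, 3, 5], [2, 3, 2, 3, 2, 3], [3, 4, 3, 4, 3, 9, 3, 4, 3, 4, 3, 9], [3, 9, 3, 9], [3, 4, 3, 4, 3, 4], [4, 5, 4, 7, 4, 5, 4, 7], [5, 7, 5, 7], [4, 5, 4, 5, 4, 5], [5, 6, 5, 6, 4, 5, 4, 5, 3, 4, 3, 4, 5, 6, 5, 6, 4, 5, 4, 5, 3, 4, 3, 4], [4, 5, 4, 5, 3, 4, 3, 5, 4, 5, 3, 4, 3, 4], [5, 6, 5, 6, 5, 6], [6, 7, 6, 7, 5, 6, 5, 6, 4, 5, 4, 5, 6, 7, 6, 7, 5, 6, 5, 6, 4, 5, 4, 5], [5, 6, 5, 6, 4, 5, 4, 6, 5, 6, 4, 5, 4, 5], [6, 7, 6, 7, 6, 7], [3, 8, 3, 8,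 3, 5, 3, 8, 3, 8, 3, 5], [3, 5, 3, 5], [3, 8, 3, 8, 3, 8], [8, 9, 8, 9, 3, 8, 3, 8, 3, 4, 8, 9, 8, 9, 3, 8, 3, 8, 3, 4], [3, 8, 3, 8, 3, 4, 3, 8, 3, 8, 3, 4], [8, 9, 8, 9, 8, 9], [0, 1, 0, 2, 3, 4, 5, 6, 7, 8, 3, 2, 1, 4, 3, 5, 9, 8, 3, 2, 1, 0, 4, 3, 2, 1, 5, 4, 6, 5, 8, 3, 2, 4, 3, 8, 9, 8, 3, 2, 1, 0, 4, 3, 2, 1, 5, 4, 3, 6, 5, 7, 8, 3, 2, 1, 4, 3, 2, 5, 4, 6, 5, 8, 3, 4, 9, 8, 3, 2, 1, 0, 0, 1, 0, 2, 3, 4, 5, 6, 7, 8, 3, 2, 1, 4, 3, 5, 9, 8, 3, 2, 1, 0, 4, 3, 2, 1, 5, 4, 6, 5, 8, 3, 2, 4, 3, 8, 9, 8, 3, 2, 1, 0, 4, 3, 2, 1, 5, 4, 3, 6, 5, 7, 8, 3, 2, 1, 4, 3, 2, 5, 4, 6, 5, 8, 3, 4, 9, 8, 3, 2, 1, 0, 0, 1, 0, 2, 3, 4, 5, 6, 7, 8, 3, 2, 1, 4, 3, 5, 9, 8, 3, 2, 1, 0, 4, 3, 2, 1, 5, 4, 6, 5, 8, 3, 2, 4, 3, 8, 9, 8, 3, 2, 1, 0, 4, 3, 2, 1, 5, 4, 3, 6, 5, 7, 8, 3, 2, 1, 4, 3, 2, 5, 4,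 6, 5, 8, 3, 4, 9, 8, 3, 2, 1, 0]]

def satD_0L : List (List Nat) :=
  [[1, 2, 1, 4, 1, 2, 1, 4],
   [2, 4, 2, 4],
   [1, 2, 1, 2, 1, 2],
   [2, 3, 2, 5, 2, 3, 2, 5],
   [3, 5, 3, 5],
   [2, 3, 2, 3, 2, 3],
   [3, 4, 3, 4, 3, 9, 3, 4, 3, 4, 3, 9],
   [3, 9, 3, 9]]

def satD_1L : List (List Nat) :=
  [[3, 4, 3, 4, 3, 4],
   [4, 5, 4, 7, 4, 5, 4, 7],
   [5, 7, 5, 7],
   [4, 5, 4, 5, 4, 5],
   [5, 6, 5, 6, 4, 5, 4, 5, 3, 4, 3, 4, 5, 6, 5, 6, 4, 5, 4, 5, 3, 4, 3, 4]]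

def satD_2L : List (List Nat) :=
  [[4, 5, 4, 5, 3, 4, 3, 5, 4, 5, 3, 4, 3, 4],
   [5, 6, 5, 6, 5, 6],
   [6, 7, 6, 7, 5, 6, 5, 6, 4, 5, 4, 5, 6, 7, 6, 7, 5, 6, 5, 6, 4, 5, 4, 5]]

def satD_3L : List (List Nat) :=
  [[5, 6, 5, 6, 4, 5, 4, 6, 5, 6, 4, 5, 4, 5],
   [6, 7, 6, 7, 6, 7],
   [3, 8, 3, 8, 3, 5, 3, 8, 3, 8, 3, 5],
   [3, 5, 3, 5],
   [3, 8, 3, 8, 3, 8]]

def satD_4L : List (List Nat) :=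
  [[8, 9, 8, 9, 3, 8, 3, 8, 3, 4, 8, 9, 8, 9, 3, 8, 3, 8, 3, 4],
   [3, 8, 3, 8, 3, 4, 3, 8, 3, 8, 3, 4],
   [8, 9, 8, 9, 8, 9]]

def satD_5L : List (List Nat) :=
  [[0, 1, 0, 2, 3, 4, 5, 6, 7, 8, 3, 2, 1, 4, 3, 5, 9, 8, 3, 2, 1, 0, 4, 3, 2, 1, 5, 4, 6, 5, 8, 3, 2, 4, 3, 8, 9, 8, 3, 2, 1, 0, 4, 3, 2, 1, 5, 4, 3, 6, 5, 7, 8, 3, 2, 1, 4, 3, 2, 5, 4, 6, 5, 8, 3, 4, 9, 8, 3, 2, 1, 0, 0, 1, 0, 2, 3, 4, 5, 6, 7, 8, 3, 2, 1, 4, 3, 5, 9, 8, 3, 2, 1, 0, 4, 3, 2, 1, 5, 4, 6, 5, 8, 3, 2, 4, 3, 8, 9, 8, 3, 2, 1, 0, 4, 3, 2, 1, 5, 4, 3, 6, 5, 7, 8, 3, 2, 1, 4, 3, 2, 5, 4, 6, 5, 8, 3, 4, 9, 8, 3, 2, 1, 0, 0, 1, 0, 2, 3, 4, 5, 6, 7, 8, 3, 2, 1, 4, 3, 5, 9, 8, 3, 2, 1, 0, 4, 3, 2, 1, 5, 4, 6, 5, 8, 3, 2, 4, 3, 8, 9, 8, 3, 2, 1, 0, 4, 3, 2, 1, 5, 4, 3, 6, 5, 7, 8, 3, 2, 1, 4, 3, 2, 5, 4, 6, 5, 8, 3, 4,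 9, 8, 3, 2, 1, 0]]

theorem satD_0_0 : SatP 31671 0 15 T satD_0L :=
  satP_of_relsP ok (by norm_num) (by norm_num) (by norm_num) (show relsP (nat_lit 31671) (nat_lit 15) (nat_lit 0) (nat_lit 15) T satD_0L = true by decide +kernel)

theorem satD_1_0 : SatP 31671 0 15 T satD_1L :=
  satP_of_relsP ok (by norm_num) (by norm_num) (by norm_num) (show relsP (nat_lit 31671) (nat_lit 15) (nat_lit 0) (nat_lit 15) T satD_1L = true by decide +kernel)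

theorem satD_2_0 : SatP 31671 0 15 T satD_2L :=
  satP_of_relsP ok (by norm_num) (by norm_num) (by norm_num) (show relsP (nat_lit 31671) (nat_lit 15) (nat_lit 0) (nat_lit 15) T satD_2L = true by decide +kernel)

theorem satD_3_0 : SatP 31671 0 15 T satD_3L :=
  satP_of_relsP ok (by norm_num) (by norm_num) (by norm_num) (show relsP (nat_lit 31671) (nat_lit 15) (nat_lit 0) (nat_lit 15) T satD_3L = true by decide +kernel)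

theorem satD_4_0 : SatP 31671 0 15 T satD_4L :=
  satP_of_relsP ok (by norm_num) (by norm_num) (by norm_num) (show relsP (nat_lit 31671) (nat_lit 15) (nat_lit 0) (nat_lit 15) T satD_4L = true by decide +kernel)

theorem satD_5_0 : SatP 31671 0 3 T satD_5L :=
  satP_of_relsP ok (by norm_num) (by norm_num) (by norm_num) (show relsP (nat_lit 31671) (nat_lit 15) (nat_lit 0) (nat_lit 3) T satD_5L = true by decide +kernel)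

theorem satD_5_3 : SatP 31671 3 6 T satD_5L :=
  satP_of_relsP ok (by norm_num) (by norm_num) (by norm_num) (show relsP (nat_lit 31671) (nat_lit 15) (nat_lit 3) (nat_lit 3) T satD_5L = true by decide +kernel)

theorem satD_5_6 : SatP 31671 6 9 T satD_5L :=
  satP_of_relsP ok (by norm_num) (by norm_num) (by norm_num) (show relsP (nat_lit 31671) (nat_lit 15) (nat_lit 6) (nat_lit 3) T satD_5L = true by decide +kernel)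

theorem satD_5_9 : SatP 31671 9 12 T satD_5L :=
  satP_of_relsP ok (by norm_num) (by norm_num) (by norm_num) (show relsP (nat_lit 31671) (nat_lit 15) (nat_lit 9) (nat_lit 3) T satD_5L = true by decide +kernel)

theorem satD_5_12 : SatP 31671 12 15 T satD_5L :=
  satP_of_relsP ok (by norm_num) (by norm_num) (by norm_num) (show relsP (nat_lit 31671) (nat_lit 15) (nat_lit 12) (nat_lit 3) T satD_5L = true by decide +kernel)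

theorem satD_0 : Sat (sig T) satD_0L := SatP.sat satD_0_0 ok (by norm_num)

theorem satD_1 : Sat (sig T) satD_1L := SatP.sat satD_1_0 ok (by norm_num)

theorem satD_2 : Sat (sig T) satD_2L := SatP.sat satD_2_0 ok (by norm_num)

theorem satD_3 : Sat (sig T) satD_3L := SatP.sat satD_3_0 ok (by norm_num)

theorem satD_4 : Sat (sig T) satD_4L := SatP.sat satD_4_0 ok (by norm_num)

theorem satD_5 : Sat (sig T) satD_5L := SatP.sat (SatP.join (SatP.join (SatP.join (SatP.join satD_5_0 satD_5_3) satD_5_6) satD_5_9) satD_5_12) ok (by norm_num)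

theorem satD : Sat (sig T) RD :=
  (show (satD_0L ++ (satD_1L ++ (satD_2L ++ (satD_3L ++ (satD_4L ++ satD_5L))))) = RD by decide +kernel) ▸ (Sat.append satD_0 (Sat.append satD_1 (Sat.append satD_2 (Sat.append satD_3 (Sat.append satD_4 satD_5)))))

theorem cover : Nat.beq (grow T W2 [0, 0, 1, 2, 6, 1, 3, 7, 2, 8, 8] (runW (nat_lit 1) T yw.reverse (ivl (nat_lit 0) (nat_lit 3511)))) (ivl (nat_lit 0) (nat_lit 31671)) = true := by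
  decide +kernel

theorem pf1 : ev (sig T) (yw.reverse ++ [2, 1, 3, 2] ++ yw) 0 = 1824 :=
  apply_eq_of ok (by norm_num) (by decide +kernel)

theorem pf2 : ev (sig T) (yw.reverse ++ [0, 1] ++ yw) 0 = 3521 :=
  apply_eq_of ok (by norm_num) (by decide +kernel)

theorem mem_comm {H : Type*} [Group H] {t : ℕ → H} {L x : ℕ} {R U V : List (List ℕ)}
    (ht : Sat t R) (hR : ∀ w ∈ R, ∀ y ∈ w, y < L)
    (h : ((∀ w ∈ U, w ∈ R) ∧ ∀ w ∈ V, w ∈ R) ∧ x < L ∧ U.flatten.Perm (x :: V.flatten)) :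
    t x ∈ ⁅gen t L, gen t L⁆ := by
  have fl : ∀ {A : Type _} [Group A] {v : ℕ → A} {U : List (List ℕ)}, Sat v U →
      ev v U.flatten = 1 := by
    intro A _ v U h
    induction U with
    | nil => rfl
    | cons w U ih =>
      rw [List.flatten_cons, ev_append, h w (by simp), ih fun u hu => h u (by simp [hu]), mul_one]
  have hv : ∀ z < L, ∃ g, (gen t L).subtype g = t z := fun z hz => ⟨⟨_, letter_mem_gen hz⟩, rfl⟩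
  have h1 := (sat_liftS (gen t L).subtype_injective hv hR ht).map Abelianization.of
  have h2 := (h.2.2.map fun y => Abelianization.of (liftS (gen t L).subtype t y)).prod_eq
  have h3 := fl (h1.mono h.1.1)
  have h4 := fl (h1.mono h.1.2)
  rw [ev] at h3 h4
  rw [h3, List.map_cons, List.prod_cons, h4, mul_one] at h2
  rw [← Subgroup.map_subtype_commutator, ← liftS_val (hv x h.2.1)]
  refine Subgroup.mem_map_of_mem _ ?_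
  rw [← Abelianization.ker_of, MonoidHom.mem_ker, ← h2]

theorem gen_nth {H : Type*} [Group H] (t : ℕ → H) (W : List (List ℕ)) :
    gen (fun i => ev t (nth [] W i)) W.length = genW t W := by
  apply le_antisymm
  · refine gen_le.mpr fun x _ => ?_
    rcases nth_mem [] W x with e | e
    · rw [e]; exact one_mem _
    · exact ev_mem_genW e
  · refine genW_le.mpr fun w hw => ?_
    obtain ⟨i, hi, rfl⟩ := List.getElem_of_mem hw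
    have := letter_mem_gen (s := fun i => ev t (nth [] W i)) hi
    rwa [nth_eq, List.getD_eq_getElem _ _ hi] at this

theorem ev_nth {H : Type*} [Group H] (t : ℕ → H) (W : List (List ℕ)) (w : List ℕ) :
    ev (fun i => ev t (nth [] W i)) w = ev t (w.map (nth [] W)).flatten := by
  induction w with
  | nil => rfl
  | cons x w ih => rw [ev_cons, ih, List.map_cons, List.flatten_cons, ev_append]

theorem comm_of {H : Type*} [Group H] {t : ℕ → H} {W W' R : List (List ℕ)}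
    {C : List (ℕ × List (List ℕ) × List (List ℕ))}
    (ht : ∀ w ∈ R, ev t (w.map (nth [] W)).flatten = 1) (hR : ∀ w ∈ R, ∀ y ∈ w, y < W.length)
    (hC : ∀ c ∈ C, ((∀ w ∈ c.2.1, w ∈ R) ∧ ∀ w ∈ c.2.2, w ∈ R) ∧ c.1 < W.length ∧
      c.2.1.flatten.Perm (c.1 :: c.2.2.flatten))
    (hW : ∀ w ∈ W', ∃ c ∈ C, w = nth [] W c.1) : genW t W' ≤ ⁅genW t W, genW t W⁆ :=
  genW_le.mpr fun w hw => by
    obtain ⟨c, hc, rfl⟩ := hW w hw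
    rw [← gen_nth]
    exact mem_comm (t := fun i => ev t (nth [] W i)) (fun w hw => (ev_nth t W w).trans (ht w hw)) hR
      (hC c hc)

theorem sq23 : ∀ x < 10, s x * s x = 1 := fun x hx => by
  simpa using pres.sat [x, x] ((by decide +kernel : ∀ x < 10, [x, x] ∈ R) x hx)

theorem satRD : Sat s RD := rep.sat_of_inj card.2.2 (by decide +kernel) satD

theorem perf0 : genW s W0 ≤ ⁅genW s W0, genW s W0⁆ :=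
  comm_of (R := R1) (C := C1) (fun w hw => pres.sat _
    ((by decide +kernel : ∀ w ∈ R1, (w.map (nth [] W0)).flatten ∈ R) w hw))
    (by decide +kernel) (by decide +kernel) (by decide +kernel)

theorem perf2 : genW s W3 ≤ ⁅genW s W2, genW s W2⁆ :=
  comm_of (R := R2) (C := C2) (fun w hw => by
    obtain ⟨h1, h2⟩ := (by decide +kernel : ∀ w ∈ R2, Lab.rd (w.map (nth [] W2)).flatten ∈ RD ∧
      ∀ x ∈ (w.map (nth [] W2)).flatten, x < 10) w hw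
    rw [← Lab.ev_rd fun x hx => sq23 x (h2 x hx)]
    exact satRD _ h1) (by decide +kernel) (by decide +kernel) (by decide +kernel)

theorem th3 : ev s th ^ 3 = 1 := by
  rw [← ev_wpow]; exact satRD _ (by decide +kernel)

theorem W2_le : genW s W2 ≤ genW s W3 ⊔ Subgroup.zpowers (ev s th) := genW_le.mpr fun w hw => by
  rcases List.mem_append.mp hw with h | h
  · exact Subgroup.mem_sup_left (ev_mem_genW h)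
  · rw [List.mem_singleton.mp h]; exact Subgroup.mem_sup_right (Subgroup.mem_zpowers _)

noncomputable def y : Cfsg.Spor.Fi23 := ev s yw

theorem y_inv : y⁻¹ = ev s yw.reverse := by
  rw [inv_eq_iff_mul_eq_one, y, ← ev_append, ← Lab.ev_rd fun x hx =>
    sq23 x ((by decide +kernel : ∀ x ∈ yw ++ yw.reverse, x < 10) x hx)]
  rfl

noncomputable def H1 : Subgroup Cfsg.Spor.Fi23 := (genW s W0).map (MulAut.conj y).toMonoidHom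

theorem mem_H1 {h : Cfsg.Spor.Fi23} : h ∈ H1 ↔ phi (y⁻¹ * h * y) 0 = 0 := by
  rw [← stab.2]
  exact ⟨by rintro ⟨a, ha, rfl⟩; simpa [mul_assoc] using ha,
    fun hh => ⟨_, hh, by simp [mul_assoc]⟩⟩

theorem perf1 : H1 ≤ ⁅H1, H1⁆ := by
  rw [H1, ← Subgroup.map_commutator]; exact Subgroup.map_mono perf0

theorem dc {a : ℕ} {f h : Cfsg.Spor.Fi23}
    (hf : phi (y⁻¹ * f * y) 0 ∈ MulAction.orbit (genW (sig T) W0) a)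
    (hh : phi (y⁻¹ * h * y) 0 ∈ MulAction.orbit (genW (sig T) W0) a) :
    ∃ a ∈ H1, ∃ b ∈ H1, h = a * f * b := by
  rw [← MulAction.orbit_eq_iff.mpr hf] at hh
  obtain ⟨⟨c', hc'⟩, e⟩ := hh
  obtain ⟨c, hc, rfl⟩ : c' ∈ (genW s W0).map phi := by rwa [rep.map_genW (by decide +kernel)]
  refine ⟨y * c * y⁻¹, ⟨c, hc, rfl⟩, (y * c * y⁻¹ * f)⁻¹ * h, mem_H1.mpr ?_, by group⟩
  rw [show y⁻¹ * ((y * c * y⁻¹ * f)⁻¹ * h) * y = (c * (y⁻¹ * f * y))⁻¹ * (y⁻¹ * h * y) by group,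
    map_mul, map_inv, Equiv.Perm.mul_apply, Equiv.Perm.inv_eq_iff_eq, map_mul phi c]
  exact e.symm

theorem pf {w : List ℕ} {p : ℕ} (hw : ∀ x ∈ yw.reverse ++ w ++ yw, x < 10)
    (h : ev (sig T) (yw.reverse ++ w ++ yw) 0 = p) : phi (y⁻¹ * ev s w * y) 0 = p := by
  rw [y_inv, y, ← ev_append, ← ev_append, rep.ev_eq hw, h]

theorem in1 : phi (y⁻¹ * ev s [2, 1, 3, 2] * y) 0 ∈ MulAction.orbit (genW (sig T) W0) 1 := by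
  rw [pf (by decide +kernel) pf1, orb1.1]; decide

theorem in2 : phi (y⁻¹ * ev s [0, 1] * y) 0 ∈ MulAction.orbit (genW (sig T) W0) 3511 := by
  rw [pf (by decide +kernel) pf2, orb3511.1]; decide

theorem d1 (h : Cfsg.Spor.Fi23) : h ∈ H1 ∨ (∃ a ∈ H1, ∃ b ∈ H1, h = a * ev s [2, 1, 3, 2] * b) ∨
    ∃ a ∈ H1, ∃ b ∈ H1, h = a * ev s [0, 1] * b := by
  have hl := Bd.lt (rep.bd (y⁻¹ * h * y)) (show 0 < 31671 by norm_num)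
  by_cases h0 : phi (y⁻¹ * h * y) 0 = 0
  · exact Or.inl (mem_H1.mpr h0)
  by_cases h1 : phi (y⁻¹ * h * y) 0 < 3511
  · exact Or.inr (Or.inl (dc in1 (by rw [orb1.1]; constructor <;> omega)))
  · exact Or.inr (Or.inr (dc in2 (by rw [orb3511.1]; constructor <;> omega)))

theorem d2 (h : Cfsg.Spor.Fi23) : ∃ a ∈ genW s W2, ∃ b ∈ H1,
    (a⁻¹ * h ∈ H1 ∨ ∃ c ∈ H1, h = a * (b * ev s [2, 1, 3, 2] * c)) := by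
  have hl := Bd.lt (rep.bd (h * y)) (show 0 < 31671 by norm_num)
  obtain ⟨p, hp, c, hc, e⟩ := grow_orbit ok (W := W2) le_rfl _ _ (phi (h * y) 0) (by
    rw [Nat.eq_of_beq_eq_true cover]; exact ⟨hl, by rw [testBit_ivl]; exact decide_eq_true ⟨Nat.zero_le _, hl⟩⟩)
  rw [← rep.map_genW (by decide +kernel)] at hc
  obtain ⟨a, ha, rfl⟩ := hc
  have h1 := hp.2
  rw [testBit_runW1 ok _ _ hp.1, testBit_ivl, ← rep.ev_eq (by decide +kernel), ← y_inv] at h1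
  have h2 : phi (y⁻¹ * (a⁻¹ * h) * y) 0 = phi y⁻¹ p := by
    rw [show y⁻¹ * (a⁻¹ * h) * y = y⁻¹ * (a⁻¹ * (h * y)) by group, map_mul, Equiv.Perm.mul_apply,
      map_mul, Equiv.Perm.mul_apply, ← e, map_inv phi a]
    simp
  have h3 : phi y⁻¹ p < 3511 := by simpa using h1
  by_cases h0 : phi y⁻¹ p = 0
  · exact ⟨a, ha, 1, one_mem _, Or.inl (mem_H1.mpr (h2.trans h0))⟩
  · obtain ⟨b, hb, c, hc, e2⟩ := dc (h := a⁻¹ * h) in1 (by rw [orb1.1, h2]; constructor <;> omega)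
    exact ⟨a, ha, b, hb, Or.inr ⟨c, hc, by rw [← e2]; simp⟩⟩

end Cfsg.Agent.Comp.F3
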