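import Cfsg.Agent.Comp.F3.U23
import Cfsg.Agent.Comp.F3.S7.Main
import Cfsg.Agent.Comp.F3.Low
import Cfsg.Agent.Comp.Fi24.Out
import Cfsg.Agent.Comp.Rk3M
import Cfsg.Agent.S2054

set_option autoImplicit false
set_option maxRecDepth 100000

namespace Cfsg.Agent.Comp.F3
open Cfsg.Agent.Comp Cfsg.Agent.Comp.Fi24 Cfsg.Agent.Comp.Fi24.O

theorem iv {w : List ℕ} (h : band (ltB 10 w) (ltB 12 (up w)) = true) :
    (iota (ev Fi23.s w) : Spor.Fi24) = ev s (up w) :=
  (iota_ev h).trans (ev_s2 ((band_eq _ _).mp h).2)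

theorem fixes {W : List (List ℕ)} {p : ℕ} (h1 : ∀ w ∈ W, band (ltB 10 w) (ltB 12 (up w)) = true)
    (h2 : invS T (W.map up) (pt p) = true) : ∀ a ∈ genW Fi23.s W, phi (iota a) p = p := by
  have : genW Fi23.s W ≤ (MulAction.stabilizer (Equiv.Perm ℕ) p).comap
      (phi.comp (eps.ker.subtype.comp iota)) := genW_le.mpr fun w hw => by
    change phi (iota (ev Fi23.s w)) p = p
    rw [iv (h1 w hw), rep.ev_eq (ltB_spec ((band_eq _ _).mp (h1 w hw)).2)]
    exact fix_of_invS ok h2 (ev_mem_genW (List.mem_map_of_mem hw))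
  exact this

theorem conj_mem {v : eps.ker} {p : ℕ} (hv : phi v p = 0) {h : Spor.Fi23}
    (hh : phi (iota h) p = p) : ∃ h', v * iota h * v⁻¹ = iota h' := iota_of (by
  have : phi (v⁻¹ : eps.ker) 0 = p := by
    rw [Subgroup.coe_inv, map_inv, Equiv.Perm.inv_eq_iff_eq, hv]
  rw [Subgroup.coe_mul, Subgroup.coe_mul, map_mul, map_mul, Equiv.Perm.mul_apply,
    Equiv.Perm.mul_apply, this, hh, hv])

theorem not_mem {v : eps.ker} {p : ℕ} (hv : phi v p = 0) (hp : p ≠ 0) : v ∉ iota.range := by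
  rintro ⟨a, rfl⟩
  exact hp ((phi _).injective (hv.trans (mem_F.mp (iota_mem a)).2.symm))

def gw : List ℕ := [1, 2, 1, 0, 3, 1, 2, 1]

noncomputable def g : eps.ker := ⟨ev s gw, sign.mem (W := [gw]) (by decide +kernel) (by decide +kernel) _ (by simp)⟩

theorem sD : Sat s S7.D := S7.der.use pres.sat [0, 1, 2, 3, 4, 5] (by decide +kernel) (by decide +kernel)

theorem gg : g * g = 1 := Subtype.ext (by
  have := sD (gw ++ gw) (by decide +kernel)
  rwa [ev_append] at this)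

theorem f1v : (iota (ev Fi23.s [2, 1, 3, 2]) : Spor.Fi24) = ev s [4, 3, 5, 4] := iv (by decide +kernel)

theorem ff : ev Fi23.s [2, 1, 3, 2] * ev Fi23.s [2, 1, 3, 2] = 1 := iota_inj (Subtype.ext (by
  have := sD ([4, 3, 5, 4] ++ [4, 3, 5, 4]) (by decide +kernel)
  rwa [map_mul, map_one, Subgroup.coe_mul, f1v, ← ev_append]))

theorem br : g * iota (ev Fi23.s [2, 1, 3, 2]) * g =
    iota (ev Fi23.s [2, 1, 3, 2]) * g * iota (ev Fi23.s [2, 1, 3, 2]) := by
  have h1 : (g * iota (ev Fi23.s [2, 1, 3, 2])) ^ 3 = 1 := Subtype.ext (by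
    have := sD (wpow (gw ++ [4, 3, 5, 4]) 3) (by decide +kernel)
    rwa [ev_wpow, ev_append, ← f1v] at this)
  have h2 := congrArg iota ff
  rw [map_mul, map_one] at h2
  generalize iota (ev Fi23.s [2, 1, 3, 2]) = f at h1 h2
  have h3 : (g * f * g) * (f * g * f) = 1 := by rw [← h1]; simp only [pow_succ, pow_zero, one_mul, mul_assoc]
  rw [eq_inv_of_mul_eq_one_left h3, mul_inv_rev, mul_inv_rev, inv_eq_of_mul_eq_one_right h2,
    inv_eq_of_mul_eq_one_right gg, mul_assoc]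

theorem g2v : ((g * iota (ev Fi23.s [0, 1]) * g : eps.ker) : Spor.Fi24) * ev s [1, 0] = 1 := by
  have := sD (gw ++ [2, 3] ++ gw ++ [1, 0]) (by decide +kernel)
  rw [ev_append, ev_append, ev_append] at this
  rw [Subgroup.coe_mul, Subgroup.coe_mul, iv (by decide +kernel)]
  exact this

theorem pg : phi g 3 = 0 :=
  (congrFun (congrArg DFunLike.coe (rep.ev_eq (w := gw) (by decide +kernel))) 3).trans
    (apply_eq_of ok (by norm_num) (by decide +kernel))

theorem pg2 : phi (g * iota (ev Fi23.s [0, 1]) * g : eps.ker) 31672 = 0 := by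
  have : phi (ev s [1, 0]) 0 = 31672 := by
    rw [rep.ev_eq (by decide +kernel)]; exact apply_eq_of ok (by norm_num) (by decide +kernel)
  rw [← this, ← Equiv.Perm.mul_apply, ← map_mul, g2v, map_one, Equiv.Perm.one_apply]

theorem py : phi (iota y) 11547 = 3 := by
  rw [y, iv (by decide +kernel), rep.ev_eq (by decide +kernel)]
  exact apply_eq_of ok (by norm_num) (by decide +kernel)

theorem fix0 : ∀ a ∈ genW Fi23.s Fi23.W0, phi (iota a) 11547 = 11547 :=
  fixes (by decide +kernel) (by decide +kernel)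

theorem fix2 : ∀ a ∈ genW Fi23.s W2, phi (iota a) 31672 = 31672 :=
  fixes (by decide +kernel) (by decide +kernel)

theorem fix1 : ∀ h ∈ H1, phi (iota h) 3 = 3 := by
  rintro _ ⟨a, ha, rfl⟩
  have : phi (iota y⁻¹) 3 = 11547 := by
    rw [map_inv, Subgroup.coe_inv, map_inv, Equiv.Perm.inv_eq_iff_eq, py]
  change phi (iota (y * a * y⁻¹)) 3 = 3
  rw [map_mul, map_mul, Subgroup.coe_mul, Subgroup.coe_mul, map_mul, map_mul, Equiv.Perm.mul_apply,
    Equiv.Perm.mul_apply, this, fix0 a ha, py]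

theorem genK : Subgroup.closure (Set.range iota ∪ {g}) = ⊤ := by
  have m1 : ∀ a, iota a ∈ Subgroup.closure (Set.range iota ∪ {g}) := fun a =>
    Subgroup.subset_closure (Or.inl ⟨a, rfl⟩)
  have m2 : g ∈ Subgroup.closure (Set.range iota ∪ {g}) := Subgroup.subset_closure (Or.inr rfl)
  have : genW s V ≤ (Subgroup.closure (Set.range iota ∪ {g})).map eps.ker.subtype :=
    genW_le.mpr fun w hw => by
      rcases (by decide +kernel : ∀ w ∈ V, w ∈ WF ∨ w = [1, 0]) w hw with h1 | rfl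
      · have h2 : ev s w ∈ F := F_eq ▸ ev_mem_genW h1
        obtain ⟨a, e⟩ := iota_of (c := ⟨_, F_le h2⟩) (mem_F.mp h2).2
        exact ⟨_, e ▸ m1 a, rfl⟩
      · exact ⟨_, inv_mem (mul_mem (mul_mem m2 (m1 (ev Fi23.s [0, 1]))) m2),
          inv_eq_of_mul_eq_one_right g2v⟩
  rw [eq_top_iff]
  intro c _
  obtain ⟨d, hd, e⟩ := this (ker_le c.2)
  exact Subtype.ext e ▸ hd

theorem data : Rk3.Data iota g H1 (genW Fi23.s W2) (genW Fi23.s W3) (ev Fi23.s [2, 1, 3, 2])
    (ev Fi23.s [0, 1]) (ev Fi23.s th) :=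
  ⟨iota_inj, genK, gg, ff, br, fun h hh => conj_mem pg (fix1 h hh), perf1, d1,
    fun h hh => conj_mem pg2 (fix2 h hh), ev_mem_genW (by decide +kernel), perf2, W2_le, th3, d2,
    not_mem pg (by norm_num), not_mem pg2 (by norm_num)⟩

theorem multK : HasCyclicSchurMultiplier eps.ker 3 := by
  have := Fi23.simple
  have : Group.IsPerfect Spor.Fi23 :=
    ⟨commutator_eq_top_of_simple (by rw [Fi23.card.2.1]; norm_num)⟩
  exact Schur.hasSchur_of (by simp) (data.up S2054.result) lowK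

theorem mult : HasCyclicSchurMultiplier Spor.Fi24' 3 := by
  have := multK
  rwa [← comm_eq] at this

end Cfsg.Agent.Comp.F3
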